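import Mathlib

/-!
The trace of the Casimir operator of the regular trace form of a finite-dimensional algebra,
computed from structure constants: it is the dimension of the centre.
-/

set_option autoImplicit false

namespace CfsgLib.Hecke

open Module Matrix

variable {W : Type*} [Fintype W] [DecidableEq W]

section Ring

variable {R : Type*} [CommRing R]

/-- The Gram matrix of the regular trace form, from the matrices of left multiplication. -/
def gramM (M : W → Matrix W W R) : Matrix W W R := Matrix.of fun u v => (M u * M v).trace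

/-- The trace of `a ↦ b_u a b_v`, from the matrices of left multiplication. -/
def mixM (M : W → Matrix W W R) (u v : W) : R := ∑ w, ∑ x, M u x w * M x w v

/-- The numerator of the trace of the Casimir operator. -/
def casNum (M : W → Matrix W W R) : R :=
  ∑ u, ∑ v, (gramM M).adjugate u v * mixM M u v

theorem map_gramM {R' : Type*} [CommRing R'] (f : R →+* R') (M : W → Matrix W W R) :
    gramM (fun u => (M u).map f) = (gramM M).map f := by
  ext u v
  simp [gramM, Matrix.trace, Matrix.mul_apply, map_sum]

theorem det_gramM_map {R' : Type*} [CommRing R'] (f : R →+* R') (M : W → Matrix W W R) :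
    (gramM fun u => (M u).map f).det = f (gramM M).det := by
  rw [map_gramM, f.map_det]
  rfl

theorem casNum_map {R' : Type*} [CommRing R'] (f : R →+* R') (M : W → Matrix W W R) :
    casNum (fun u => (M u).map f) = f (casNum M) := by
  rw [casNum, casNum, map_sum]
  refine Finset.sum_congr rfl fun u _ => ?_
  rw [map_sum]
  refine Finset.sum_congr rfl fun v _ => ?_
  rw [map_mul, map_gramM, show (gramM M).map f = f.mapMatrix (gramM M) from rfl,
    ← RingHom.map_adjugate]
  simp [mixM, map_sum]

end Ring

variable {K : Type*} [Field K] {A : Type*} [Ring A] [Algebra K A]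

/-- The regular trace. -/
noncomputable def regTr : A →ₗ[K] K := (LinearMap.trace K A) ∘ₗ (LinearMap.mul K A)

theorem regTr_apply (a : A) : regTr (K := K) a = LinearMap.trace K A (LinearMap.mulLeft K a) := rfl

variable (b : Basis W K A) (M : W → Matrix W W K) (hb : ∀ u v, b u * b v = ∑ w, M u w v • b w)

include hb in
theorem toMatrix_mulLeft (u : W) : LinearMap.toMatrix b b (LinearMap.mulLeft K (b u)) = M u := by
  ext x w
  rw [LinearMap.toMatrix_apply, LinearMap.mulLeft_apply, hb, Basis.repr_sum_self]

include hb in
theorem regTr_mul (u v : W) : regTr (K := K) (b u * b v) = gramM M u v := by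
  rw [regTr_apply, LinearMap.mulLeft_mul, LinearMap.trace_eq_matrix_trace K b,
    LinearMap.toMatrix_comp b b b, toMatrix_mulLeft b M hb, toMatrix_mulLeft b M hb]
  rfl

include hb in
theorem trace_mix (u v : W) :
    LinearMap.trace K A ((LinearMap.mulLeft K (b u)).comp (LinearMap.mulRight K (b v))) =
      mixM M u v := by
  rw [LinearMap.trace_eq_matrix_trace K b, Matrix.trace, mixM]
  refine Finset.sum_congr rfl fun w _ => ?_
  rw [Matrix.diag_apply, LinearMap.toMatrix_apply, LinearMap.comp_apply, LinearMap.mulLeft_apply,
    LinearMap.mulRight_apply, ← mul_assoc, hb, Finset.sum_mul, map_sum, Finsupp.finsetSum_apply]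
  refine Finset.sum_congr rfl fun x _ => ?_
  rw [smul_mul_assoc, map_smul, hb, Finsupp.smul_apply, Basis.repr_sum_self, smul_eq_mul]

include hb in
theorem det_gramM_ne_zero (h : ∀ a : A, (∀ c, regTr (K := K) (a * c) = 0) → a = 0) :
    (gramM M).det ≠ 0 := by
  intro hd
  obtain ⟨v, hv, hv0⟩ := Matrix.exists_vecMul_eq_zero_iff.2 hd
  refine hv ?_
  have ha : ∑ u, v u • b u = 0 := by
    refine h _ fun c => ?_
    have hz : ∀ x, regTr (K := K) ((∑ u, v u • b u) * b x) = 0 := fun x => by
      rw [Finset.sum_mul, map_sum]
      simp_rw [smul_mul_assoc, map_smul, regTr_mul b M hb]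
      exact congrFun hv0 x
    rw [← b.sum_repr c, Finset.mul_sum, map_sum]
    refine Finset.sum_eq_zero fun x _ => ?_
    rw [mul_smul_comm, map_smul, hz, smul_zero]
  exact funext fun u => Fintype.linearIndependent_iff.1 b.linearIndependent v ha u

include hb in
/-- **The Casimir trace.** -/
theorem casNum_eq [CharZero K] (hdet : (gramM M).det ≠ 0) :
    casNum M = (finrank K (Subalgebra.center K A).toSubmodule : K) * (gramM M).det := by
  classical
  haveI : FiniteDimensional K A := Module.Finite.of_basis b
  haveI := Module.Free.of_divisionRing K (Subalgebra.center K A).toSubmodule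
  set τ := gramM M with hτ
  set d : W → A := fun u => ∑ v, (τ.det⁻¹ * τ.adjugate u v) • b v with hd
  have hdual : ∀ u w, regTr (K := K) (d u * b w) = if u = w then 1 else 0 := by
    intro u w
    rw [hd, Finset.sum_mul, map_sum]
    simp_rw [smul_mul_assoc, map_smul, regTr_mul b M hb, ← hτ, smul_eq_mul, mul_assoc,
      ← Finset.mul_sum, ← Matrix.mul_apply, Matrix.adjugate_mul]
    simp [Matrix.one_apply, hdet]
  have hcomm : ∀ a c : A, regTr (K := K) (a * c) = regTr (K := K) (c * a) := by
    intro a c
    rw [regTr_apply, regTr_apply, LinearMap.mulLeft_mul, LinearMap.mulLeft_mul]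
    exact LinearMap.trace_mul_comm K _ _
  have hnd : ∀ a, (∀ w, regTr (K := K) (a * b w) = 0) → a = 0 := by
    intro a ha
    rw [← b.sum_repr a]
    refine Finset.sum_eq_zero fun u _ => ?_
    have h1 : regTr (K := K) (d u * a) = b.repr a u := by
      conv_lhs => rw [← b.sum_repr a]
      rw [Finset.mul_sum, map_sum]
      simp_rw [mul_smul_comm, map_smul, hdual]
      simp
    rw [← h1, hcomm, hd, Finset.mul_sum, map_sum]
    simp_rw [mul_smul_comm, map_smul, ha]
    simp
  have hexp : ∀ a : A, a = ∑ u, regTr (K := K) (d u * a) • b u := by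
    intro a
    conv_lhs => rw [← b.sum_repr a]
    refine Finset.sum_congr rfl fun u _ => ?_
    congr 1
    conv_rhs => rw [← b.sum_repr a]
    rw [Finset.mul_sum, map_sum]
    simp_rw [mul_smul_comm, map_smul, hdual]
    simp
  have hexp' : ∀ a : A, a = ∑ u, regTr (K := K) (a * b u) • d u := by
    intro a
    refine (sub_eq_zero.1 (hnd _ fun w => ?_))
    rw [sub_mul, map_sub, Finset.sum_mul, map_sum]
    simp_rw [smul_mul_assoc, map_smul, hdual]
    simp
  set C : A →ₗ[K] A := ∑ u, (LinearMap.mulLeft K (b u)).comp (LinearMap.mulRight K (d u)) with hC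
  have hCa : ∀ a, C a = ∑ u, b u * (a * d u) := fun a => by
    rw [hC, LinearMap.sum_apply]; rfl
  have hone : ∑ u, b u * d u = 1 := by
    refine sub_eq_zero.1 (hnd _ fun w => ?_)
    rw [sub_mul, map_sub, one_mul, sub_eq_zero, Finset.sum_mul, map_sum, regTr_apply,
      LinearMap.trace_eq_matrix_trace K b, Matrix.trace]
    refine Finset.sum_congr rfl fun u _ => ?_
    rw [Matrix.diag_apply, LinearMap.toMatrix_apply, LinearMap.mulLeft_apply]
    conv_rhs => rw [hexp (b w * b u), Basis.repr_sum_self]
    rw [hcomm (d u), hcomm (b u * d u) (b w), mul_assoc]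
  have hproj : LinearMap.IsProj (Subalgebra.center K A).toSubmodule C := by
    refine ⟨fun a => ?_, fun z hz => ?_⟩
    · rw [Subalgebra.mem_toSubmodule, Subalgebra.mem_center_iff]
      intro z
      rw [hCa, Finset.mul_sum, Finset.sum_mul]
      calc ∑ u, z * (b u * (a * d u))
          = ∑ u, ∑ w, regTr (K := K) (d w * (z * b u)) • (b w * (a * d u)) := by
            refine Finset.sum_congr rfl fun u _ => ?_
            conv_lhs => rw [← mul_assoc, hexp (z * b u)]
            rw [Finset.sum_mul]
            simp_rw [smul_mul_assoc]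
        _ = ∑ w, b w * (a * d w) * z := by
            rw [Finset.sum_comm]
            refine Finset.sum_congr rfl fun w _ => ?_
            rw [mul_assoc (b w), mul_assoc a, hexp' (d w * z), Finset.mul_sum, Finset.mul_sum]
            refine Finset.sum_congr rfl fun u _ => ?_
            rw [mul_smul_comm, mul_smul_comm, mul_assoc]
    · rw [Subalgebra.mem_toSubmodule, Subalgebra.mem_center_iff] at hz
      rw [hCa]
      calc ∑ u, b u * (z * d u) = ∑ u, z * (b u * d u) := by
            refine Finset.sum_congr rfl fun u _ => ?_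
            rw [← mul_assoc, hz (b u), mul_assoc]
        _ = z := by rw [← Finset.mul_sum, hone, mul_one]
  have htr : LinearMap.trace K A C = ∑ u, ∑ v, (τ.det⁻¹ * τ.adjugate u v) * mixM M u v := by
    rw [hC, map_sum]
    refine Finset.sum_congr rfl fun u _ => ?_
    have e : (LinearMap.mulLeft K (b u)).comp (LinearMap.mulRight K (d u)) =
        ∑ v, (τ.det⁻¹ * τ.adjugate u v) •
          (LinearMap.mulLeft K (b u)).comp (LinearMap.mulRight K (b v)) := by
      refine LinearMap.ext fun a => ?_
      simp [hd, Finset.mul_sum, mul_smul_comm]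
    rw [e, map_sum]
    simp_rw [map_smul, trace_mix b M hb, smul_eq_mul]
  rw [hproj.trace] at htr
  rw [htr, casNum, ← hτ, Finset.sum_mul]
  refine Finset.sum_congr rfl fun u _ => ?_
  rw [Finset.sum_mul]
  refine Finset.sum_congr rfl fun v _ => ?_
  field_simp

end CfsgLib.Hecke
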