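import Cfsg.Agent.Hecke.Model
import Cfsg.Agent.SteinbergChar.Chev
import Cfsg.Agent.Chevalley.Coxeter
import Cfsg.Prelude.Def_ParabolicCharacters

/-!
The Bruhat decomposition of a finite Chevalley group as double coset data for the Coxeter group
of the type, and the count of the constituents of the permutation character on the Borel subgroup.
-/

set_option autoImplicit false

namespace CfsgLib.Hecke

open Cfsg Cfsg.Lie CfsgLib.Chevalley CfsgLib.BNPair CfsgLib.SteinbergChar Module

variable {D : ChevalleyDatum} (S : Sys D)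

section Field

variable (F : Type*) [Field F]

theorem exists_cell_of (g : ↥(D.group F)) : ∃ w, g ∈ cell (S.bnPair F) w := by
  obtain ⟨n, hn, hg⟩ := exists_mem_dc (S.bnPair F) g
  have hnN := closure_le_N (S.bnPair F) subset_rfl hn
  exact ⟨toW _ n hnN, (mem_cell_toW _ hnN).2 hg⟩

/-- The Bruhat cell of an element, in the Weyl group. -/
noncomputable def cellOf (g : ↥(D.group F)) : Weyl (S.bnPair F) := (exists_cell_of S F g).choose

theorem mem_cellOf (g : ↥(D.group F)) : g ∈ cell (S.bnPair F) (cellOf S F g) :=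
  (exists_cell_of S F g).choose_spec

theorem cellOf_eq {g : ↥(D.group F)} {w : Weyl (S.bnPair F)} (h : g ∈ cell (S.bnPair F) w) :
    cellOf S F g = w := eq_of_mem_cell _ (mem_cellOf S F g) h

theorem cellOf_eq_cell (g : ↥(D.group F)) (w : Weyl (S.bnPair F)) :
    cellOf S F g = w ↔ g ∈ cell (S.bnPair F) w :=
  ⟨fun h => h ▸ mem_cellOf S F g, cellOf_eq S F⟩

/-- The cell of a generator meets each of its cosets in one element `x(t) n`. -/
theorem card_cell_gen [Fintype F] (i : Fin D.rank) :
    Nat.card {y : ↥(D.group F) ⧸ (D.borelSubgroup F).subgroupOf (D.group F) //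
      cellOf S F y.out = gen _ (simpleGen S F i)} = Fintype.card F := by
  classical
  set B := (D.borelSubgroup F).subgroupOf (D.group F) with hB
  have hl := S.wf.simple_lt i i.isLt
  set n : ↥(D.group F) := (simpleGen S F i).1 with hn
  let xt : F → ↥(D.group F) := fun t => ⟨S.xG F (D.simple i) t, S.xG_mem F hl t⟩
  have hxB : ∀ t, xt t ∈ B := fun t => S.xG_mem_borel F (S.simple_pos i i.isLt) hl t
  have hout : ∀ g : ↥(D.group F), g ∈ cell (S.bnPair F) (gen _ (simpleGen S F i)) →
      (QuotientGroup.mk g : ↥(D.group F) ⧸ B).out ∈ cell (S.bnPair F) (gen _ (simpleGen S F i)) := by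
    intro g hg
    obtain ⟨b, hb⟩ := QuotientGroup.mk_out_eq_mul B g
    rw [hb]
    exact cell_mul_right _ b.2 hg
  have hmem : ∀ t, xt t * n ∈ cell (S.bnPair F) (gen _ (simpleGen S F i)) := fun t =>
    cell_mul_left _ (hxB t) (self_mem_cell_gen _ _)
  let f : F → {y : ↥(D.group F) ⧸ B // cellOf S F y.out = gen _ (simpleGen S F i)} := fun t =>
    ⟨QuotientGroup.mk (xt t * n), cellOf_eq S F (hout _ (hmem t))⟩
  rw [← Nat.card_eq_fintype_card]
  refine (Nat.card_congr (Equiv.ofBijective f ⟨fun t u h => ?_, fun y => ?_⟩)).symm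
  · have h1 := QuotientGroup.eq.1 (congrArg Subtype.val h)
    have h2 : ((n : GL D.Idx F))⁻¹ * S.xG F (D.simple i) (-t + u) * (n : GL D.Idx F) ∈
        D.borelSubgroup F := by
      rw [← S.xG_add, ← S.xG_inv]
      simpa [xt, hB, Subgroup.mem_subgroupOf, mul_assoc] using h1
    rw [show (n : GL D.Idx F) = S.nG F (D.simple i) 1 from rfl] at h2
    have h3 : (S.nG F (D.simple i) 1)⁻¹ * S.xG F (D.simple i) (-t + u) * S.nG F (D.simple i) 1 =
        S.xG F (D.neg (D.simple i))
          ((S.eta i (D.neg (D.simple i)) : F) * (-t + u)) := by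
      have hln := S.wf.neg_lt _ hl
      rw [mul_assoc, inv_mul_eq_iff_eq_mul, S.nG_conj_xG F i.isLt hln, ← mul_assoc (S.eta i (D.neg (D.simple i)) : F),
        S.eta_cast F i.isLt hln, one_mul]
      congr 2
      have hw := S.w_w i i.isLt _ hl
      rw [S.w_simple i.isLt] at hw
      exact hw.symm
    rw [h3] at h2
    by_contra hne
    refine S.xG_neg_not_mem_borel F ((S.neg_half _ hl).mpr (S.simple_pos i i.isLt)) ?_ h2
    refine mul_ne_zero (left_ne_zero_of_mul_eq_one (S.eta_cast F i.isLt (S.wf.neg_lt _ hl))) ?_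
    intro e
    exact hne (neg_add_eq_zero.1 e)
  · obtain ⟨y, hy⟩ := y
    have hg := (cellOf_eq_cell S F _ _).1 hy
    rw [show gen (S.bnPair F) (simpleGen S F i) = toW (S.bnPair F) n _ from rfl, mem_cell_toW,
      mem_dc] at hg
    obtain ⟨b, hb, b', hb', e⟩ := hg
    obtain ⟨v, hv, c, hvc⟩ := (S.mem_borel F).1 (Subgroup.mem_subgroupOf.1 hb)
    obtain ⟨u, hu, t, hut⟩ := S.posUnipotent_split F i.isLt (inv_mem hv)
    refine ⟨-t, Subtype.ext ?_⟩
    show QuotientGroup.mk (xt (-t) * n) = y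
    conv_rhs => rw [← QuotientGroup.out_eq' y, e]
    rw [QuotientGroup.eq, show (xt (-t) * n)⁻¹ * (b * n * b') = n⁻¹ * ((xt (-t))⁻¹ * b) * n * b' by group]
    refine mul_mem ?_ hb'
    rw [hB, Subgroup.mem_subgroupOf]
    simp only [Subgroup.coe_mul, Subgroup.coe_inv, xt]
    rw [hvc, show v = S.xG F (D.simple i) (-t) * u⁻¹ by
      rw [← S.xG_inv, ← mul_inv_rev, ← hut, inv_inv], show (n : GL D.Idx F) = S.nG F (D.simple i) 1 from rfl]
    rw [show (S.nG F (D.simple i) 1)⁻¹ * ((S.xG F (D.simple i) (-t))⁻¹ *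
        (S.xG F (D.simple i) (-t) * u⁻¹ * tor D F c)) * S.nG F (D.simple i) 1 =
      ((S.nG F (D.simple i) 1)⁻¹ * u⁻¹ * ((S.nG F (D.simple i) 1)⁻¹)⁻¹) *
        ((S.nG F (D.simple i) 1)⁻¹ * tor D F c * ((S.nG F (D.simple i) 1)⁻¹)⁻¹) by group]
    refine mul_mem (S.others_le_borel F i ?_) (Subgroup.mem_sup_right ?_)
    · exact (Subgroup.mem_normalizer_iff.mp
        (inv_mem (S.nG_mem_normalizer_others F i.isLt 1)) _).mp (inv_mem hu)
    · exact (Subgroup.mem_normalizer_iff.mp
        (S.monomial_le_normalizer F (inv_mem (S.nG_mem_monomial F i.isLt))) _).mp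
        (by rw [S.diagonal_eq]; exact ⟨c, rfl⟩)

end Field

variable {M : CoxeterMatrix (Fin D.rank)} {ψ : M.Group →* Equiv.Perm (Fin D.nroots)}
  (hinj : Function.Injective ψ) (hψ : ∀ i, ψ (M.simple i) = S.srefl i)
  (hr : ∀ σ, (∃ x, ψ x = σ) ↔ ∃ L : List (Fin D.rank), σ = S.wperm L)

/-- The number of inverted roots. -/
noncomputable def coxLen (ψ : M.Group →* Equiv.Perm (Fin D.nroots)) (w : M.Group) : ℕ :=
  (invSet (ψ w)).card

include hr in
theorem exists_coxElt (F : Type*) [Field F] (w : Weyl (S.bnPair F)) :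
    ∃ x, ψ x = wPerm S F w := (hr _).2 (exists_wperm_eq S F w)

/-- The Coxeter element of a Weyl element. -/
noncomputable def toCox (F : Type*) [Field F] (w : Weyl (S.bnPair F)) : M.Group :=
  (exists_coxElt S hr F w).choose

theorem toCox_spec (F : Type*) [Field F] (w : Weyl (S.bnPair F)) :
    ψ (toCox S hr F w) = wPerm S F w := (exists_coxElt S hr F w).choose_spec

include hinj in
theorem toCox_mul (F : Type*) [Field F] (v w : Weyl (S.bnPair F)) :
    toCox S hr F (v * w) = toCox S hr F v * toCox S hr F w :=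
  hinj (by rw [map_mul, toCox_spec, toCox_spec, toCox_spec, map_mul])

include hinj in
theorem toCox_injective (F : Type*) [Field F] : Function.Injective (toCox S hr F) := fun v w h =>
  wPerm_injective S F (by rw [← toCox_spec S hr, ← toCox_spec S hr, h])

include hinj hψ in
theorem toCox_gen (F : Type*) [Field F] (i : Fin D.rank) :
    toCox S hr F (gen _ (simpleGen S F i)) = M.simple i :=
  hinj (by rw [toCox_spec, wPerm_gen, hψ])

theorem coxLen_toCox (F : Type*) [Field F] (w : Weyl (S.bnPair F)) :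
    coxLen ψ (toCox S hr F w) = len _ w := by
  rw [coxLen, toCox_spec, len_eq_card]

include hinj hψ hr in
theorem toCox_surjective (F : Type*) [Field F] : Function.Surjective (toCox S hr F) := by
  intro x
  obtain ⟨L, hL⟩ := (hr (ψ x)).1 ⟨x, rfl⟩
  exact ⟨wordProd _ (L.map (simpleGen S F)), hinj (by rw [toCox_spec, wPerm_wordProd, hL])⟩

include hinj hψ hr in
theorem coxLen_ne (i : Fin D.rank) (w : M.Group) :
    coxLen ψ (M.simple i * w) ≠ coxLen ψ w := by
  obtain ⟨v, rfl⟩ := toCox_surjective S hinj hψ hr ℚ w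
  rw [← toCox_gen S hinj hψ hr ℚ i, ← toCox_mul S hinj hr, coxLen_toCox, coxLen_toCox]
  exact len_gen_mul_ne _ _ _

include hinj hψ hr in
theorem exists_isLen : ∃ wd, IsLen M.simple (coxLen ψ) wd := by
  have h : ∀ w : M.Group, ∃ L : List (Fin D.rank), (L.map M.simple).prod = w ∧
      L.length = coxLen ψ w := by
    intro w
    obtain ⟨v, rfl⟩ := toCox_surjective S hinj hψ hr ℚ w
    obtain ⟨K, rfl, hK⟩ := exists_reduced _ v
    obtain ⟨L, rfl⟩ := exists_list S ℚ K
    refine ⟨L, hinj ?_, by rw [coxLen_toCox, ← hK, List.length_map]⟩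
    rw [toCox_spec, wPerm_wordProd, map_list_prod, List.map_map, Sys.wperm]
    congr 1
    exact List.map_congr_left fun i _ => hψ i
  choose wd h1 h2 using h
  refine ⟨wd, ?_, fun i => ?_, fun i w => ?_, h1, h2⟩
  · simp [coxLen, invSet]
  · refine hinj ?_
    rw [map_mul, map_one, hψ, S.srefl_mul_self]
  · obtain ⟨v, rfl⟩ := toCox_surjective S hinj hψ hr ℚ w
    rw [← toCox_gen S hinj hψ hr ℚ i, ← toCox_mul S hinj hr, coxLen_toCox, coxLen_toCox]
    exact len_gen_mul_le _ _ _

include hinj hψ hr in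
theorem cellData (F : Type*) [Field F] [Fintype F] :
    CellData ((D.borelSubgroup F).subgroupOf (D.group F)) M.simple (coxLen ψ) (Fintype.card F)
      (fun g => toCox S hr F (cellOf S F g)) where
  one := hinj (by
    rw [cellOf_eq S F (w := 1) (by rw [cell_one]; exact one_mem _), toCox_spec, map_one, map_one])
  biB b hb b' hb' g := congrArg _ (cellOf_eq S F
    (cell_mul_right _ hb' (cell_mul_left _ hb (mem_cellOf S F g))))
  fib g h e := by
    have e' := toCox_injective S hinj hr F e
    have hg := mem_cellOf S F g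
    have hh := mem_cellOf S F h
    rw [← e'] at hh
    obtain ⟨n, hn, hw⟩ := exists_toW _ (cellOf S F g)
    rw [← hw, mem_cell_toW, mem_dc] at hg hh
    obtain ⟨x, hx, y, hy, hg⟩ := hg
    obtain ⟨x', hx', y', hy', hh⟩ := hh
    exact ⟨x' * x⁻¹, mul_mem hx' (inv_mem hx), y⁻¹ * y', mul_mem (inv_mem hy) hy', by
      rw [hh, hg]; group⟩
  surj w := by
    obtain ⟨v, rfl⟩ := toCox_surjective S hinj hψ hr F w
    obtain ⟨n, hn, rfl⟩ := exists_toW _ v
    exact ⟨n, congrArg _ (cellOf_eq S F (self_mem_cell _ hn))⟩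
  inv i h e := by
    rw [← toCox_gen S hinj hψ hr F i] at e ⊢
    refine congrArg _ (cellOf_eq S F ?_)
    rw [← gen_inv]
    exact inv_mem_cell _ ((toCox_injective S hinj hr F e) ▸ mem_cellOf S F h)
  dich i g h e := by
    rw [← toCox_gen S hinj hψ hr F i] at e ⊢
    have hh := (toCox_injective S hinj hr F e) ▸ mem_cellOf S F h
    rcases cell_gen_mul _ _ hh (mem_cellOf S F g) with h1 | h1
    · left; rw [← toCox_mul S hinj hr, cellOf_eq S F h1]
    · right; rw [cellOf_eq S F h1]
  up i g h e hlt := by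
    rw [← toCox_gen S hinj hψ hr F i] at e hlt ⊢
    have hh := (toCox_injective S hinj hr F e) ▸ mem_cellOf S F h
    rw [← toCox_mul S hinj hr, coxLen_toCox, coxLen_toCox] at hlt
    rw [← toCox_mul S hinj hr,
      cellOf_eq S F (cell_gen_mul_of_le _ _ hlt.le hh (mem_cellOf S F g))]
  card i := by
    rw [← card_cell_gen S F i]
    refine Nat.card_congr (Equiv.subtypeEquivRight fun y => ?_)
    rw [← toCox_gen S hinj hψ hr F i]
    exact (toCox_injective S hinj hr F).eq_iff

include hinj hψ hr in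
/-- The specialisation at the order of a field. -/
theorem eval_at [Fintype M.Group] [DecidableEq M.Group] {wd : M.Group → List (Fin D.rank)}
    (hl : IsLen M.simple (coxLen ψ) wd) (E : Type*) [Field E] [Fintype E] :
    (gramM (heckeP M.simple (coxLen ψ) wd)).det.eval ((Fintype.card E : ℕ) : ℂ) ≠ 0 ∧
    ∃ k ≤ Fintype.card M.Group, k = Nat.card {χ : IrrCharacter ↥(D.group E) //
      ∃ φ : ↥(D.group E) → ℂ, IsCharacter ↥(D.group E) φ ∧
        fixedPointCharacter ((D.borelSubgroup E).subgroupOf (D.group E)) =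
          (χ : ↥(D.group E) → ℂ) + φ} ∧
      (casNum (heckeP M.simple (coxLen ψ) wd)).eval ((Fintype.card E : ℕ) : ℂ) =
        (k : ℂ) * (gramM (heckeP M.simple (coxLen ψ) wd)).det.eval ((Fintype.card E : ℕ) : ℂ) := by
  classical
  have hne := coxLen_ne S hinj hψ hr
  letI : Fintype ↥(D.group E) := Fintype.ofFinite _
  letI : Fintype (↥(D.group E) ⧸ (D.borelSubgroup E).subgroupOf (D.group E)) := Fintype.ofFinite _
  obtain ⟨h1, k, hk, hk', h2⟩ := (cellData S hinj hψ hr E).eval_casNum hl hne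
  refine ⟨h1, k, hk, hk'.trans (Nat.card_congr (Equiv.subtypeEquivRight fun χ => ?_)), h2⟩
  constructor
  · intro h
    exact CfsgLib.Chars.exists_add_of_classInner_ne_zero
      CfsgLib.Chars.PermChar.isCharacter_fixChar χ h
  · rintro ⟨φ, hφ, e⟩
    obtain ⟨n, hn⟩ := CfsgLib.Chars.exists_nat_classInner hφ χ
    rw [show CfsgLib.Chars.PermChar.fixChar ↥(D.group E) _ = (χ : ↥(D.group E) → ℂ) + φ from e,
      CfsgLib.Chars.classInner_add_left, CfsgLib.Chars.classInner_self, hn]
    rw [← Nat.cast_one, ← Nat.cast_add]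
    exact_mod_cast (by omega : 1 + n ≠ 0)

include S in
/-- The number of constituents of the permutation character on the Borel subgroup. -/
theorem natCard_constituents (hM : chkCox D M = true) (F : Type*) [Field F] [Fintype F] :
    Nat.card {χ : IrrCharacter ↥(D.group F) //
      ∃ φ : ↥(D.group F) → ℂ, IsCharacter ↥(D.group F) φ ∧
        fixedPointCharacter ((D.borelSubgroup F).subgroupOf (D.group F)) =
          (χ : ↥(D.group F) → ℂ) + φ} = Nat.card (ConjClasses M.Group) := by
  classical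
  obtain ⟨ψ, hinj, hψ, hr⟩ := S.exists_coxAction F M hM
  haveI : Finite M.Group := Finite.of_injective ψ hinj
  letI : Fintype M.Group := Fintype.ofFinite _
  obtain ⟨wd, hl⟩ := exists_isLen S hinj hψ hr
  obtain ⟨N, hN⟩ := exists_factor (Q := (fun p : ℕ => (p : ℂ)) '' {p | p.Prime})
    (N := casNum (heckeP M.simple (coxLen ψ) wd))
    (d := (gramM (heckeP M.simple (coxLen ψ) wd)).det) (n := Fintype.card M.Group)
    (Nat.infinite_setOfPred_prime.image Nat.cast_injective.injOn) (by
      rintro _ ⟨p, hp, rfl⟩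
      haveI : Fact (Nat.Prime p) := ⟨hp⟩
      obtain ⟨-, k, hk, -, h⟩ := eval_at S hinj hψ hr hl (ZMod p)
      rw [ZMod.card] at h
      exact ⟨k, hk, h⟩)
  obtain ⟨hd1, h1⟩ := eval_one_casNum hl
  obtain ⟨hdq, k, -, hk', hq⟩ := eval_at S hinj hψ hr hl F
  rw [← hk']
  rw [hN, Polynomial.eval_mul, Polynomial.eval_natCast] at h1 hq
  have e1 := mul_right_cancel₀ hd1 h1
  have e2 := mul_right_cancel₀ hdq hq
  exact_mod_cast e2.symm.trans e1

end CfsgLib.Hecke
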