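import Cfsg.Agent.Hecke.Casimir

/-!
The generic Hecke structure constants, and the specialisation at `1` to the group algebra.
-/

set_option autoImplicit false

namespace CfsgLib.Hecke

open Module Matrix Polynomial

variable {ι : Type*} {W : Type*} [Group W] [Fintype W] [DecidableEq W] (s : ι → W) (ℓ : W → ℕ)

/-- The generic matrix of left multiplication by a generator. -/
noncomputable def heckeL (i : ι) : Matrix W W ℂ[X] :=
  Matrix.of fun w' w => if ℓ w' < ℓ (s i * w') then (if w = s i * w' then X else 0)
    else (if w = s i * w' then 1 else 0) + (if w = w' then X - 1 else 0)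

variable (wd : W → List ι)

/-- The generic matrices of left multiplication by the basis elements. -/
noncomputable def heckeP (u : W) : Matrix W W ℂ[X] := ((wd u).map (heckeL s ℓ)).prod

/-- A length function with chosen reduced words. -/
structure IsLen : Prop where
  one : ℓ 1 = 0
  sq : ∀ i, s i * s i = 1
  le : ∀ i w, ℓ (s i * w) ≤ ℓ w + 1
  prod : ∀ w, ((wd w).map s).prod = w
  length : ∀ w, (wd w).length = ℓ w

variable {s ℓ wd}

theorem IsLen.prod_le (h : IsLen s ℓ wd) (l : List ι) : ℓ (l.map s).prod ≤ l.length := by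
  induction l with
  | nil => simp [h.one]
  | cons a l ih =>
    rw [List.map_cons, List.prod_cons, List.length_cons]
    exact (h.le a _).trans (by omega)

variable {A : Type*} [Ring A] [Algebra ℂ A] (T : W → A) (x : ℂ)

/-- The multiplication rule of a generator. -/
def HeckeRule (s : ι → W) (ℓ : W → ℕ) : Prop :=
  ∀ i w, T (s i) * T w = ∑ w', ((heckeL s ℓ i).map (evalRingHom x)) w' w • T w'

theorem map_prod_matrix (l : List ι) :
    ((l.map (heckeL s ℓ)).prod).map (evalRingHom x) =
      (l.map fun i => (heckeL s ℓ i).map (evalRingHom x)).prod := by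
  rw [show ((l.map (heckeL s ℓ)).prod).map (evalRingHom x) =
    (evalRingHom x).mapMatrix (l.map (heckeL s ℓ)).prod from rfl, map_list_prod, List.map_map]
  rfl

variable {T x}

theorem list_mul (hr : HeckeRule T x s ℓ) (l : List ι) (v : W) :
    (l.map fun i => T (s i)).prod * T v =
      ∑ w, ((l.map fun i => (heckeL s ℓ i).map (evalRingHom x)).prod) w v • T w := by
  induction l with
  | nil => simp [Matrix.one_apply]
  | cons a l ih =>
    rw [List.map_cons, List.prod_cons, mul_assoc, ih, Finset.mul_sum, List.map_cons, List.prod_cons]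
    simp_rw [mul_smul_comm, hr a, Finset.smul_sum, smul_smul]
    rw [Finset.sum_comm]
    refine Finset.sum_congr rfl fun w _ => ?_
    rw [Matrix.mul_apply, Finset.sum_smul]
    exact Finset.sum_congr rfl fun z _ => by rw [mul_comm]

theorem eq_list (h : IsLen s ℓ wd) (hr : HeckeRule T x s ℓ) (h1 : T 1 = 1) (l : List ι)
    (hl : ℓ (l.map s).prod = l.length) : (l.map fun i => T (s i)).prod = T (l.map s).prod := by
  induction l with
  | nil => simp [h1]
  | cons a l ih =>
    rw [List.map_cons, List.prod_cons, List.length_cons] at hl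
    have e1 := h.prod_le l
    have e2 := h.le a (l.map s).prod
    rw [List.map_cons, List.prod_cons, ih (by omega), List.map_cons, List.prod_cons, hr]
    generalize hv : (l.map s).prod = v at hl e1 e2 ⊢
    have hss : s a * (s a * v) = v := by rw [← mul_assoc, h.sq, one_mul]
    have hne : v ≠ s a * v := fun e => by rw [← e] at hl; omega
    rw [Finset.sum_eq_single (s a * v)]
    · rw [Matrix.map_apply, heckeL, Matrix.of_apply, hss, if_neg (by omega), if_pos rfl,
        if_neg hne]
      simp
    · intro w' _ hw'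
      have h2 : v ≠ s a * w' := fun e => hw' (by rw [e, ← mul_assoc, h.sq, one_mul])
      rw [Matrix.map_apply, heckeL, Matrix.of_apply, if_neg h2, if_neg h2]
      by_cases e : v = w'
      · rw [← e, if_pos (by omega : ℓ v < ℓ (s a * v))]
        simp
      · rw [if_neg e]
        simp
    · exact fun hh => absurd (Finset.mem_univ _) hh

theorem mul_rule (h : IsLen s ℓ wd) (hr : HeckeRule T x s ℓ) (h1 : T 1 = 1) (u v : W) :
    T u * T v = ∑ w, ((heckeP s ℓ wd u).map (evalRingHom x)) w v • T w := by
  have hu : ((wd u).map fun i => T (s i)).prod = T u := by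
    rw [eq_list h hr h1 _ (by rw [h.prod, h.length]), h.prod]
  rw [← hu, list_mul hr, heckeP, map_prod_matrix]

/-- The evaluation of the generic Casimir numerator on an algebra obeying the Hecke rule. -/
theorem eval_casNum (h : IsLen s ℓ wd) (b : Basis W ℂ A) (hr : HeckeRule b x s ℓ) (h1 : b 1 = 1)
    (hnd : ∀ a : A, (∀ c, regTr (K := ℂ) (a * c) = 0) → a = 0) :
    (gramM (heckeP s ℓ wd)).det.eval x ≠ 0 ∧
      (casNum (heckeP s ℓ wd)).eval x =
        (finrank ℂ (Subalgebra.center ℂ A).toSubmodule : ℂ) *
          (gramM (heckeP s ℓ wd)).det.eval x := by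
  set M := fun u => (heckeP s ℓ wd u).map (evalRingHom x) with hM
  have hb : ∀ u v, b u * b v = ∑ w, M u w v • b w := mul_rule h hr h1
  have hd := det_gramM_ne_zero b M hb hnd
  refine ⟨?_, ?_⟩
  · rw [hM, det_gramM_map] at hd
    exact hd
  · have := casNum_eq b M hb hd
    rw [hM, casNum_map, det_gramM_map] at this
    exact this

/-- A polynomial proportional at infinitely many points, with bounded natural factor, is
proportional. -/
theorem exists_factor {N d : ℂ[X]} {n : ℕ} {Q : Set ℂ} (hQ : Q.Infinite)
    (h : ∀ x ∈ Q, ∃ k ≤ n, N.eval x = (k : ℂ) * d.eval x) : ∃ k : ℕ, N = (k : ℂ[X]) * d := by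
  have hz : ∏ k ∈ Finset.range (n + 1), (N - (k : ℂ[X]) * d) = 0 := by
    refine Polynomial.eq_zero_of_infinite_isRoot _ (hQ.mono fun x hx => ?_)
    obtain ⟨k, hk, e⟩ := h x hx
    rw [Set.mem_setOf_eq, Polynomial.IsRoot, Polynomial.eval_prod]
    refine Finset.prod_eq_zero (Finset.mem_range.2 (Nat.lt_succ_of_le hk)) ?_
    simp [e]
  obtain ⟨k, -, hk⟩ := Finset.prod_eq_zero_iff.1 hz
  exact ⟨k, sub_eq_zero.1 hk⟩

section GroupAlgebra

theorem heckeRule_one (h : IsLen s ℓ wd) :
    HeckeRule (fun w => MonoidAlgebra.single w (1 : ℂ)) 1 s ℓ := by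
  intro i w
  rw [MonoidAlgebra.single_mul_single, mul_one, Finset.sum_eq_single (s i * w)]
  · rw [Matrix.map_apply, heckeL, Matrix.of_apply]
    have hss : w = s i * (s i * w) := by rw [← mul_assoc, h.sq, one_mul]
    split_ifs <;> simp
  · intro w' _ hw'
    have h2 : w ≠ s i * w' := fun e => hw' (by rw [e, ← mul_assoc, h.sq, one_mul])
    rw [Matrix.map_apply, heckeL, Matrix.of_apply, if_neg h2, if_neg h2]
    split_ifs <;> simp
  · exact fun hh => absurd (Finset.mem_univ _) hh

theorem regTr_single (g : W) :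
    regTr (K := ℂ) (MonoidAlgebra.single g (1 : ℂ)) = if g = 1 then (Fintype.card W : ℂ) else 0 := by
  rw [regTr_apply, LinearMap.trace_eq_matrix_trace ℂ (MonoidAlgebra.basis W ℂ), Matrix.trace]
  simp only [Matrix.diag_apply, LinearMap.toMatrix_apply]
  split_ifs with hg
  · subst hg
    simp [MonoidAlgebra.single_mul_single, MonoidAlgebra.basis]
  · refine Finset.sum_eq_zero fun w _ => ?_
    simp [MonoidAlgebra.single_mul_single, MonoidAlgebra.basis, hg]

theorem groupAlgebra_nondeg (a : MonoidAlgebra ℂ W)
    (h : ∀ c, regTr (K := ℂ) (a * c) = 0) : a = 0 := by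
  set b := MonoidAlgebra.basis W ℂ
  have ha : a = ∑ w, b.repr a w • MonoidAlgebra.single w (1 : ℂ) := by
    conv_lhs => rw [← b.sum_repr a]
    simp [b, MonoidAlgebra.basis]
  rw [ha]
  refine Finset.sum_eq_zero fun g _ => ?_
  have h2 := h (MonoidAlgebra.single g⁻¹ 1)
  rw [ha, Finset.sum_mul, map_sum] at h2
  simp_rw [smul_mul_assoc, MonoidAlgebra.single_mul_single, mul_one, map_smul, regTr_single,
    mul_inv_eq_one, smul_eq_mul, mul_ite, mul_zero] at h2
  rw [Finset.sum_ite_eq', if_pos (Finset.mem_univ _)] at h2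
  rw [(mul_eq_zero.1 h2).resolve_right (Nat.cast_ne_zero.2 Fintype.card_ne_zero), zero_smul]

/-- Class functions give the centre of the group algebra. -/
theorem finrank_center_groupAlgebra :
    finrank ℂ (Subalgebra.center ℂ (MonoidAlgebra ℂ W)).toSubmodule = Nat.card (ConjClasses W) := by
  classical
  haveI : Fintype (ConjClasses W) := Fintype.ofFinite _
  set b := MonoidAlgebra.basis W ℂ
  have hb : ∀ g, b g = MonoidAlgebra.single g (1 : ℂ) := fun g => by simp [b, MonoidAlgebra.basis]
  have hl : ∀ (a : MonoidAlgebra ℂ W) (g x : W),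
      b.repr (b g * a) x = b.repr a (g⁻¹ * x) ∧ b.repr (a * b g) x = b.repr a (x * g⁻¹) := by
    intro a g x
    constructor
    · conv_lhs => rw [← b.sum_repr a, Finset.mul_sum]
      simp_rw [mul_smul_comm, hb, MonoidAlgebra.single_mul_single, mul_one, ← hb, map_sum, map_smul,
        Basis.repr_self]
      simp only [Finsupp.coe_finsetSum, Finset.sum_apply, Finsupp.coe_smul, Pi.smul_apply,
        Finsupp.single_apply, smul_eq_mul, mul_ite, mul_one, mul_zero]
      rw [Finset.sum_eq_single (g⁻¹ * x) (fun y _ hy => if_neg fun e => hy (by rw [← e]; group))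
        fun hh => absurd (Finset.mem_univ _) hh, if_pos (mul_inv_cancel_left g x)]
    · conv_lhs => rw [← b.sum_repr a, Finset.sum_mul]
      simp_rw [smul_mul_assoc, hb, MonoidAlgebra.single_mul_single, mul_one, ← hb, map_sum, map_smul,
        Basis.repr_self]
      simp only [Finsupp.coe_finsetSum, Finset.sum_apply, Finsupp.coe_smul, Pi.smul_apply,
        Finsupp.single_apply, smul_eq_mul, mul_ite, mul_one, mul_zero]
      rw [Finset.sum_eq_single (x * g⁻¹) (fun y _ hy => if_neg fun e => hy (by rw [← e]; group))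
        fun hh => absurd (Finset.mem_univ _) hh, if_pos (inv_mul_cancel_right x g)]
  have hmem : ∀ a : MonoidAlgebra ℂ W, a ∈ Subalgebra.center ℂ (MonoidAlgebra ℂ W) ↔
      ∀ x y, IsConj x y → b.repr a x = b.repr a y := by
    intro a
    rw [Subalgebra.mem_center_iff]
    constructor
    · intro h x y hxy
      obtain ⟨g, rfl⟩ := isConj_iff.1 hxy
      have h2 := congrArg (fun c => b.repr c (g * x)) (h (b g))
      simp only [(hl a g _).1, (hl a g _).2, inv_mul_cancel_left] at h2
      exact h2
    · intro h c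
      rw [← b.sum_repr c, Finset.mul_sum, Finset.sum_mul]
      refine Finset.sum_congr rfl fun g _ => ?_
      rw [smul_mul_assoc, mul_smul_comm]
      congr 1
      refine b.ext_elem fun x => ?_
      rw [(hl a g x).1, (hl a g x).2]
      exact h _ _ (isConj_iff.2 ⟨g, by group⟩)
  let e : ↥(Subalgebra.center ℂ (MonoidAlgebra ℂ W)).toSubmodule →ₗ[ℂ] (ConjClasses W → ℂ) :=
    { toFun := fun a c => b.repr (a : MonoidAlgebra ℂ W) (Quotient.out c)
      map_add' := fun a a' => funext fun c => by simp
      map_smul' := fun r a => funext fun c => by simp }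
  have hout : ∀ x : W, IsConj x (Quotient.out (ConjClasses.mk x)) := fun x =>
    ConjClasses.mk_eq_mk_iff_isConj.1 (Quotient.out_eq (ConjClasses.mk x)).symm
  have hbij : Function.Bijective e := by
    refine ⟨fun a a' h => Subtype.ext (b.ext_elem fun x => ?_), fun f => ?_⟩
    · rw [(hmem _).1 a.2 _ _ (hout x), (hmem _).1 a'.2 _ _ (hout x)]
      exact congrFun h (ConjClasses.mk x)
    · refine ⟨⟨b.equivFun.symm fun x => f (ConjClasses.mk x), (hmem _).2 fun x y hxy => ?_⟩,
        funext fun c => ?_⟩
      · rw [← b.equivFun_apply, LinearEquiv.apply_symm_apply]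
        exact congrArg f (ConjClasses.mk_eq_mk_iff_isConj.2 hxy)
      · change b.repr (b.equivFun.symm fun x => f (ConjClasses.mk x)) (Quotient.out c) = f c
        rw [← b.equivFun_apply, LinearEquiv.apply_symm_apply]
        exact congrArg f (Quotient.out_eq c)
  rw [(LinearEquiv.ofBijective e hbij).finrank_eq, Module.finrank_pi, Nat.card_eq_fintype_card]

/-- The specialisation at `1`. -/
theorem eval_one_casNum (h : IsLen s ℓ wd) :
    (gramM (heckeP s ℓ wd)).det.eval 1 ≠ 0 ∧
      (casNum (heckeP s ℓ wd)).eval 1 =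
        (Nat.card (ConjClasses W) : ℂ) * (gramM (heckeP s ℓ wd)).det.eval 1 := by
  have hb : (⇑(MonoidAlgebra.basis W ℂ) : W → MonoidAlgebra ℂ W) =
      fun w => MonoidAlgebra.single w (1 : ℂ) := funext fun w => by simp [MonoidAlgebra.basis]
  have := eval_casNum h (MonoidAlgebra.basis W ℂ) (x := 1) (by rw [hb]; exact heckeRule_one h)
    (by rw [hb]; rfl) groupAlgebra_nondeg
  rwa [finrank_center_groupAlgebra] at this

end GroupAlgebra

end CfsgLib.Hecke
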