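import Cfsg.Agent.Chars.PermChar.MultFree
import Mathlib.Algebra.Algebra.Subalgebra.Basic

/-!
The centre of the centraliser algebra of a permutation representation: its dimension is the
number of distinct irreducible constituents of the permutation character.
-/

set_option autoImplicit false

namespace CfsgLib.Hecke

open Cfsg CfsgLib.Chars CfsgLib.Chars.PermChar Representation Module

universe u v

variable (G : Type u) [Group G] (Ω : Type v) [MulAction G Ω] [Fintype Ω] [DecidableEq Ω]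

/-- The centraliser algebra. -/
def invAlg : Subalgebra ℂ (Matrix Ω Ω ℂ) where
  carrier := {M | IsInvariant G M}
  mul_mem' {M N} hM hN g x y := by
    rw [Matrix.mul_apply, Matrix.mul_apply]
    exact (Fintype.sum_equiv (MulAction.toPerm g) _ _ fun z => by
      rw [MulAction.toPerm_apply, hM g x z, hN g z y]).symm
  add_mem' {M N} hM hN g x y := by rw [Matrix.add_apply, Matrix.add_apply, hM g x y, hN g x y]
  algebraMap_mem' c g x y := by
    simp [Matrix.algebraMap_matrix_apply, smul_left_cancel_iff]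

variable {G Ω}

theorem mem_invAlg_iff {M : Matrix Ω Ω ℂ} : M ∈ invAlg G Ω ↔
    ∀ g, Cfsg.permRep ℂ G Ω g ∘ₗ Matrix.toLin' M = Matrix.toLin' M ∘ₗ Cfsg.permRep ℂ G Ω g :=
  (commute_permRep_iff M).symm

theorem exists_invAlg_of_comm {S : (Ω → ℂ) →ₗ[ℂ] Ω → ℂ}
    (h : ∀ g, Cfsg.permRep ℂ G Ω g ∘ₗ S = S ∘ₗ Cfsg.permRep ℂ G Ω g) :
    ∃ M : ↥(invAlg G Ω), Matrix.toLin' (M : Matrix Ω Ω ℂ) = S :=
  ⟨⟨LinearMap.toMatrix' S, mem_invAlg_iff.2 (by simpa using h)⟩, Matrix.toLin'_toMatrix' S⟩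

theorem central_comm {z : ↥(invAlg G Ω)} (hz : z ∈ Subalgebra.center ℂ ↥(invAlg G Ω))
    {S : (Ω → ℂ) →ₗ[ℂ] Ω → ℂ}
    (h : ∀ g, Cfsg.permRep ℂ G Ω g ∘ₗ S = S ∘ₗ Cfsg.permRep ℂ G Ω g) :
    Matrix.toLin' (z : Matrix Ω Ω ℂ) ∘ₗ S = S ∘ₗ Matrix.toLin' (z : Matrix Ω Ω ℂ) := by
  obtain ⟨M, rfl⟩ := exists_invAlg_of_comm h
  rw [← Matrix.toLin'_mul, ← Matrix.toLin'_mul]
  exact congrArg (fun a : ↥(invAlg G Ω) => Matrix.toLin' (a : Matrix Ω Ω ℂ))
    ((Subalgebra.mem_center_iff.1 hz) M).symm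

/-- A central element acts on each isotypic component as a scalar. -/
theorem exists_scalar [Fintype G] {z : ↥(invAlg G Ω)}
    (hz : z ∈ Subalgebra.center ℂ ↥(invAlg G Ω)) {n : ℕ}
    {σ : Representation ℂ G (Fin n → ℂ)} (hσ : σ.IsIrreducible) :
    ∃ c : ℂ, ∀ (m : ℕ) (τ : Representation ℂ G (Fin m → ℂ)), τ.IsIrreducible →
      τ.character = σ.character → ∀ ψ : (Fin m → ℂ) →ₗ[ℂ] Ω → ℂ,
      (∀ g, Cfsg.permRep ℂ G Ω g ∘ₗ ψ = ψ ∘ₗ τ g) →
        Matrix.toLin' (z : Matrix Ω Ω ℂ) ∘ₗ ψ = c • ψ := by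
  classical
  set Z := Matrix.toLin' (z : Matrix Ω Ω ℂ) with hZ
  suffices h : ∃ c : ℂ, ∀ ψ : (Fin n → ℂ) →ₗ[ℂ] Ω → ℂ,
      (∀ g, Cfsg.permRep ℂ G Ω g ∘ₗ ψ = ψ ∘ₗ σ g) → Z ∘ₗ ψ = c • ψ by
    obtain ⟨c, hc⟩ := h
    refine ⟨c, fun m τ hτ heq ψ hψ => ?_⟩
    haveI := hσ
    haveI := hτ
    haveI : Invertible (Nat.card G : ℂ) := invertibleOfNonzero (Nat.cast_ne_zero.2 Nat.card_pos.ne')
    haveI : NeZero (Nat.card G : ℂ) := ⟨Nat.cast_ne_zero.2 Nat.card_pos.ne'⟩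
    obtain ⟨e⟩ : Nonempty (Representation.Equiv σ τ) := by
      by_contra hne
      have h1 := Representation.char_orthonormal τ σ
      have h2 := Representation.char_orthonormal τ τ
      rw [if_neg hne] at h1
      rw [if_pos ⟨Representation.Equiv.refl τ⟩] at h2
      rw [heq] at h2
      rw [heq] at h1
      exact one_ne_zero (h2.symm.trans h1)
    have h3 := hc (ψ ∘ₗ e.toLinearMap) fun g => by
      rw [← LinearMap.comp_assoc, hψ g, LinearMap.comp_assoc, LinearMap.comp_assoc]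
      congr 1
      exact (e.isIntertwining' g).symm
    refine LinearMap.ext fun v => ?_
    have := LinearMap.congr_fun h3 (e.symm.toLinearMap v)
    simpa using this
  rcases Classical.em (∃ φ : (Fin n → ℂ) →ₗ[ℂ] Ω → ℂ,
      (∀ g, Cfsg.permRep ℂ G Ω g ∘ₗ φ = φ ∘ₗ σ g) ∧ φ ≠ 0) with ⟨φ, hφ, hφ0⟩ | hnone
  swap
  · refine ⟨0, fun ψ hψ => ?_⟩
    have : ψ = 0 := by
      by_contra h
      exact hnone ⟨ψ, hψ, h⟩
    simp [this]
  obtain ⟨L, hL, hL'⟩ := exists_left_inverse hφ (injective_of_equivariant hσ hφ hφ0)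
  have hzc : ∀ g, Cfsg.permRep ℂ G Ω g ∘ₗ Z = Z ∘ₗ Cfsg.permRep ℂ G Ω g := mem_invAlg_iff.1 z.2
  obtain ⟨c, hc⟩ := exists_eq_smul_id hσ (ψ := L ∘ₗ Z ∘ₗ φ) fun g => by
    refine LinearMap.ext fun v => ?_
    have e1 := LinearMap.congr_fun (hL g) (Z (φ v))
    have e2 := LinearMap.congr_fun (hzc g) (φ v)
    have e3 := LinearMap.congr_fun (hφ g) v
    simp only [LinearMap.comp_apply] at e1 e2 e3 ⊢
    rw [e1, e2, e3]
  refine ⟨c, fun ψ hψ => ?_⟩
  have hcomm := central_comm hz (S := ψ ∘ₗ L) fun g => by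
    rw [← LinearMap.comp_assoc, hψ, LinearMap.comp_assoc, hL, LinearMap.comp_assoc]
  calc Z ∘ₗ ψ = (Z ∘ₗ (ψ ∘ₗ L)) ∘ₗ φ := by
        rw [LinearMap.comp_assoc, LinearMap.comp_assoc, hL', LinearMap.comp_id]
    _ = (ψ ∘ₗ L) ∘ₗ (Z ∘ₗ φ) := by rw [hcomm, LinearMap.comp_assoc]
    _ = ψ ∘ₗ (c • LinearMap.id) := by rw [LinearMap.comp_assoc, hc]
    _ = c • ψ := by rw [LinearMap.comp_smul, LinearMap.comp_id]

/-- The number of constituents is the dimension of the centre of the centraliser algebra. -/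
theorem finrank_center_invAlg [Fintype G] :
    finrank ℂ (Subalgebra.center ℂ ↥(invAlg G Ω)).toSubmodule =
      Nat.card {χ : IrrCharacter G // classInner (fixChar G Ω) (χ : G → ℂ) ≠ 0} := by
  classical
  choose n σ hσ hχ using fun χ : IrrCharacter G => χ.2
  choose c hc using fun (z : ↥(Subalgebra.center ℂ ↥(invAlg G Ω)).toSubmodule) (χ : IrrCharacter G) =>
    exists_scalar (z := (z : ↥(invAlg G Ω))) z.2 (hσ χ)
  set I := {χ : IrrCharacter G // classInner (fixChar G Ω) (χ : G → ℂ) ≠ 0}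
  have hnz : ∀ χ : I, ∃ φ : (Fin (n χ.1) → ℂ) →ₗ[ℂ] Ω → ℂ,
      (∀ g, Cfsg.permRep ℂ G Ω g ∘ₗ φ = φ ∘ₗ σ χ.1 g) ∧ φ ≠ 0 := by
    intro χ
    by_contra hnone
    refine χ.2 ?_
    have hb : (linHom (σ χ.1) (Cfsg.permRep ℂ G Ω)).invariants = ⊥ := by
      refine (Submodule.eq_bot_iff _).2 fun φ hφ => ?_
      by_contra h
      exact hnone ⟨φ, mem_linHom_iff.1 hφ, h⟩
    rw [← hχ χ.1, ← finrank_intertwiners, hb, finrank_bot, Nat.cast_zero]
  choose φ hφ hφ0 using hnz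
  have huniq : ∀ (z : ↥(Subalgebra.center ℂ ↥(invAlg G Ω)).toSubmodule) (χ : I) (a : ℂ),
      Matrix.toLin' ((z : ↥(invAlg G Ω)) : Matrix Ω Ω ℂ) ∘ₗ φ χ = a • φ χ → c z χ.1 = a := by
    intro z χ a ha
    rw [hc z χ.1 _ (σ χ.1) (hσ χ.1) rfl (φ χ) (hφ χ)] at ha
    exact smul_left_injective ℂ (hφ0 χ) ha
  let Φ : ↥(Subalgebra.center ℂ ↥(invAlg G Ω)).toSubmodule →ₗ[ℂ] (I → ℂ) :=
    { toFun := fun z χ => c z χ.1
      map_add' := fun z w => funext fun χ => huniq _ χ _ (by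
        rw [Pi.add_apply, Submodule.coe_add, Subalgebra.coe_add, map_add, LinearMap.add_comp,
          hc z χ.1 _ (σ χ.1) (hσ χ.1) rfl (φ χ) (hφ χ),
          hc w χ.1 _ (σ χ.1) (hσ χ.1) rfl (φ χ) (hφ χ), add_smul])
      map_smul' := fun a z => funext fun χ => huniq _ χ _ (by
        rw [Pi.smul_apply, Submodule.coe_smul, Subalgebra.coe_smul, map_smul, LinearMap.smul_comp,
          hc z χ.1 _ (σ χ.1) (hσ χ.1) rfl (φ χ) (hφ χ), RingHom.id_apply, smul_eq_mul, mul_smul]) }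
  have hinj : Function.Injective Φ := by
    intro z w hzw
    have h0 : Matrix.toLin' ((z : ↥(invAlg G Ω)) : Matrix Ω Ω ℂ) -
        Matrix.toLin' ((w : ↥(invAlg G Ω)) : Matrix Ω Ω ℂ) = 0 := by
      refine comp_eq_zero_of_intertwiners (G := G) _ fun m τ ψ hτ hψ => ?_
      let χ : IrrCharacter G := ⟨τ.character, isIrrCharacter_character τ hτ⟩
      rw [LinearMap.sub_comp, hc z χ m τ hτ (hχ χ).symm ψ hψ, hc w χ m τ hτ (hχ χ).symm ψ hψ]
      by_cases hI : classInner (fixChar G Ω) (χ : G → ℂ) ≠ 0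
      · rw [show c z χ = c w χ from congrFun hzw ⟨χ, hI⟩, sub_self]
      · have hb : finrank ℂ (linHom τ (Cfsg.permRep ℂ G Ω)).invariants = 0 := by
          have := finrank_intertwiners (Ω := Ω) τ
          rw [show classInner (fixChar G Ω) τ.character = 0 from not_not.1 hI] at this
          exact_mod_cast this
        haveI := Module.Free.of_divisionRing ℂ (linHom τ (Cfsg.permRep ℂ G Ω)).invariants
        have hm : ψ ∈ (linHom τ (Cfsg.permRep ℂ G Ω)).invariants := mem_linHom_iff.2 hψ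
        rw [Submodule.finrank_eq_zero.1 hb, Submodule.mem_bot] at hm
        rw [hm, smul_zero, smul_zero, sub_zero]
    exact Subtype.ext (Subtype.ext (Matrix.toLin'.injective (sub_eq_zero.1 h0)))
  -- the central idempotents
  have hsurj : ∀ χ : I, ∃ z, Φ z = Pi.single χ 1 := by
    intro χ
    set f : G → ℂ := fun g => ((χ.1 : G → ℂ) 1 / Nat.card G) * (χ.1 : G → ℂ) g⁻¹ with hf
    set Z : (Ω → ℂ) →ₗ[ℂ] Ω → ℂ := ∑ g, f g • Cfsg.permRep ℂ G Ω g with hZ
    have hfc : ∀ g h, f (h * g * h⁻¹) = f g := fun g h => by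
      show _ * (χ.1 : G → ℂ) (h * g * h⁻¹)⁻¹ = _ * (χ.1 : G → ℂ) g⁻¹
      rw [show (h * g * h⁻¹)⁻¹ = h * g⁻¹ * h⁻¹ by group]
      exact congrArg _ (isClassFunction_coe χ.1 g⁻¹ h)
    have hcl : ∀ {V : Type v} [AddCommGroup V] [Module ℂ V] (ρ : Representation ℂ G V) (h : G),
        ρ h ∘ₗ (∑ g, f g • ρ g) = (∑ g, f g • ρ g) ∘ₗ ρ h := by
      intro V _ _ ρ h
      rw [← Module.End.mul_eq_comp, ← Module.End.mul_eq_comp, Finset.mul_sum, Finset.sum_mul]
      refine Fintype.sum_equiv (MulAut.conj h).toEquiv _ _ fun g => ?_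
      rw [mul_smul_comm, smul_mul_assoc, ← map_mul, ← map_mul, MulEquiv.toEquiv_eq_coe,
        MulEquiv.coe_toEquiv, MulAut.conj_apply, hfc, inv_mul_cancel_right]
    obtain ⟨z, hz⟩ := exists_invAlg_of_comm (hcl (Cfsg.permRep ℂ G Ω))
    have hzc : z ∈ Subalgebra.center ℂ ↥(invAlg G Ω) := by
      rw [Subalgebra.mem_center_iff]
      intro w
      refine Subtype.ext (Matrix.toLin'.injective ?_)
      rw [Subalgebra.coe_mul, Subalgebra.coe_mul, Matrix.toLin'_mul, Matrix.toLin'_mul, hz]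
      refine LinearMap.ext fun v => ?_
      simp only [LinearMap.comp_apply, LinearMap.coe_sum, Finset.sum_apply, map_sum,
        LinearMap.smul_apply, map_smul]
      refine Finset.sum_congr rfl fun g _ => congrArg _ ?_
      exact (LinearMap.congr_fun (mem_invAlg_iff.1 w.2 g) v).symm
    refine ⟨⟨z, hzc⟩, funext fun η => huniq _ η _ ?_⟩
    -- the action on an intertwiner
    have hact : Matrix.toLin' (z : Matrix Ω Ω ℂ) ∘ₗ φ η = φ η ∘ₗ (∑ g, f g • σ η.1 g) := by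
      rw [hz]
      refine LinearMap.ext fun v => ?_
      simp only [LinearMap.comp_apply, LinearMap.coe_sum, Finset.sum_apply, map_sum,
        LinearMap.smul_apply, map_smul]
      exact Finset.sum_congr rfl fun g _ => congrArg _ (LinearMap.congr_fun (hφ η g) v)
    obtain ⟨a, ha⟩ := exists_eq_smul_id (hσ η.1) (ψ := ∑ g, f g • σ η.1 g) fun h => by
      rw [← Module.End.mul_eq_comp, ← Module.End.mul_eq_comp, Finset.mul_sum, Finset.sum_mul]
      refine Fintype.sum_equiv (MulAut.conj h).toEquiv _ _ fun g => ?_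
      rw [mul_smul_comm, smul_mul_assoc, ← map_mul, ← map_mul, MulEquiv.toEquiv_eq_coe,
        MulEquiv.coe_toEquiv, MulAut.conj_apply, hfc, inv_mul_cancel_right]
    show Matrix.toLin' (z : Matrix Ω Ω ℂ) ∘ₗ φ η = _
    rw [hact, ha, LinearMap.comp_smul, LinearMap.comp_id]
    congr 1
    have ht := congrArg (LinearMap.trace ℂ _) ha
    rw [map_sum, map_smul, LinearMap.trace_id, smul_eq_mul] at ht
    simp_rw [map_smul, smul_eq_mul] at ht
    have hn : (n η.1 : ℂ) = (η.1 : G → ℂ) 1 := by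
      rw [← hχ η.1, Representation.char_one, Module.finrank_fin_fun]
    rw [Module.finrank_fin_fun, hn] at ht
    have hsum : ∀ ψ : IrrCharacter G,
        ∑ g, f g * (ψ : G → ℂ) g = if χ.1 = ψ then (χ.1 : G → ℂ) 1 else 0 := by
      intro ψ
      have h1 := classInner_irr ψ χ.1
      rw [classInner_eq_sum_map_inv _ (isCharacter_coe χ.1)] at h1
      simp_rw [hf, mul_assoc, ← Finset.mul_sum]
      rw [show ∑ g, (χ.1 : G → ℂ) g⁻¹ * (ψ : G → ℂ) g = ∑ g, (ψ : G → ℂ) g * (χ.1 : G → ℂ) g⁻¹ from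
        Finset.sum_congr rfl fun g _ => mul_comm _ _]
      have hG : (Nat.card G : ℂ) ≠ 0 := natCard_ne_zero
      rw [div_eq_mul_inv, mul_assoc, h1]
      split_ifs with e1 e2 e2
      · rw [mul_one]
      · exact absurd e1.symm e2
      · exact absurd e2.symm e1
      · rw [mul_zero]
    have hchar : ∀ g, LinearMap.trace ℂ _ (σ η.1 g) = (η.1 : G → ℂ) g := fun g =>
      congrFun (hχ η.1) g
    simp_rw [hchar] at ht
    rw [hsum η.1] at ht
    rw [Pi.single_apply]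
    by_cases e : χ.1 = η.1
    · obtain rfl : χ = η := Subtype.ext e
      rw [if_pos rfl] at ht ⊢
      exact (mul_right_cancel₀ (map_one_ne_zero χ.1) (by rw [one_mul]; exact ht)).symm
    · rw [if_neg e] at ht
      rw [if_neg fun h => e (by rw [h])]
      exact (mul_eq_zero.1 ht.symm).resolve_right (map_one_ne_zero η.1)
  haveI : Finite (IrrCharacter G) := inferInstance
  haveI : Fintype I := Fintype.ofFinite _
  have hsurj' : Function.Surjective Φ := by
    rw [← LinearMap.range_eq_top, eq_top_iff, ← (Pi.basisFun ℂ I).span_eq, Submodule.span_le]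
    rintro _ ⟨χ, rfl⟩
    obtain ⟨z, hz⟩ := hsurj χ
    exact ⟨z, by rw [hz, Pi.basisFun_apply]⟩
  rw [(LinearEquiv.ofBijective Φ ⟨hinj, hsurj'⟩).finrank_eq, Module.finrank_pi,
    Nat.card_eq_fintype_card]

end CfsgLib.Hecke
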