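import Cfsg.Agent.Hecke.Deform
import Cfsg.Agent.Hecke.PermCenter

/-!
The Hecke algebra of a finite group with a Bruhat-type double coset decomposition.
-/

set_option autoImplicit false

namespace CfsgLib.Hecke

open Cfsg CfsgLib.Chars.PermChar Module Polynomial
open scoped Matrix

variable {ι W : Type*} [Group W]

/-- Double coset data: the map to the Weyl group with the multiplication rules. -/
structure CellData {G : Type*} [Group G] (B : Subgroup G) (s : ι → W) (ℓ : W → ℕ) (q : ℕ)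
    (c : G → W) : Prop where
  one : c 1 = 1
  biB : ∀ b ∈ B, ∀ b' ∈ B, ∀ g, c (b * g * b') = c g
  fib : ∀ g h, c g = c h → ∃ b ∈ B, ∃ b' ∈ B, h = b * g * b'
  surj : Function.Surjective c
  inv : ∀ i h, c h = s i → c h⁻¹ = s i
  dich : ∀ i g h, c h = s i → c (h * g) = s i * c g ∨ c (h * g) = c g
  up : ∀ i g h, c h = s i → ℓ (c g) < ℓ (s i * c g) → c (h * g) = s i * c g
  card : ∀ i, Nat.card {y : G ⧸ B // c y.out = s i} = q

variable [Fintype W] [DecidableEq W] {G : Type*} [Group G] [Fintype G] {B : Subgroup G}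
variable {s : ι → W} {ℓ : W → ℕ} {q : ℕ} {c : G → W} (H : CellData B s ℓ q c)

include H in
omit [Fintype W] [DecidableEq W] [Fintype G] in
theorem CellData.c_eq_one_iff (g : G) : c g = 1 ↔ g ∈ B := by
  refine ⟨fun h => ?_, fun h => ?_⟩
  · obtain ⟨b, hb, b', hb', rfl⟩ := H.fib 1 g (by rw [H.one, h])
    rw [mul_one]
    exact mul_mem hb hb'
  · rw [← H.one, ← H.biB g h 1 (one_mem B) 1, mul_one, mul_one]

/-- The relative position of two cosets. -/
noncomputable def relPos (c : G → W) (x y : G ⧸ B) : W := c (x.out⁻¹ * y.out)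

include H in
omit [Fintype W] [DecidableEq W] [Fintype G] in
theorem CellData.relPos_mk (a b : G) : relPos c (a : G ⧸ B) (b : G ⧸ B) = c (a⁻¹ * b) := by
  obtain ⟨u, hu⟩ := QuotientGroup.mk_out_eq_mul B a
  obtain ⟨v, hv⟩ := QuotientGroup.mk_out_eq_mul B b
  rw [relPos, hu, hv, mul_inv_rev, show (u : G)⁻¹ * a⁻¹ * (b * v) = (u : G)⁻¹ * (a⁻¹ * b) * v by group]
  exact H.biB _ (inv_mem u.2) _ v.2 _

include H in
omit [Fintype W] [DecidableEq W] [Fintype G] in
theorem CellData.relPos_smul (g : G) (x y : G ⧸ B) : relPos c (g • x) (g • y) = relPos c x y := by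
  conv_lhs => rw [← QuotientGroup.out_eq' x, ← QuotientGroup.out_eq' y]
  rw [MulAction.Quotient.smul_coe, MulAction.Quotient.smul_coe, H.relPos_mk, smul_eq_mul,
    smul_eq_mul, relPos]
  congr 1
  group

include H in
omit [DecidableEq W] in
/-- The count of the intermediate cosets. -/
theorem CellData.count (hsq : ∀ i, s i * s i = 1) (i : ι) (a g : G) :
    (ℓ (c g) < ℓ (s i * c g) → ∀ y : G ⧸ B, relPos c (a : G ⧸ B) y = s i →
      relPos c y ((a * g : G) : G ⧸ B) = s i * c g) ∧
    (¬ ℓ (c g) < ℓ (s i * c g) → ℓ (c g) ≠ ℓ (s i * c g) →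
      (∀ y : G ⧸ B, relPos c (a : G ⧸ B) y = s i →
        relPos c y ((a * g : G) : G ⧸ B) = s i * c g ∨ relPos c y ((a * g : G) : G ⧸ B) = c g) ∧
      ∃! y : G ⧸ B, relPos c (a : G ⧸ B) y = s i ∧
        relPos c y ((a * g : G) : G ⧸ B) = s i * c g) := by
  have key : ∀ y : G ⧸ B, relPos c (a : G ⧸ B) y = s i →
      ∃ h, c h = s i ∧ y = ((a * h : G) : G ⧸ B) ∧
        relPos c y ((a * g : G) : G ⧸ B) = c (h⁻¹ * g) := by
    intro y hy
    refine ⟨a⁻¹ * y.out, ?_, by simp, ?_⟩
    · rw [← H.relPos_mk, QuotientGroup.out_eq']; exact hy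
    · conv_lhs => rw [← QuotientGroup.out_eq' y]
      rw [H.relPos_mk]
      congr 1
      group
  refine ⟨fun hup y hy => ?_, fun hdown hne => ⟨fun y hy => ?_, ?_⟩⟩
  · obtain ⟨h, hh, -, e⟩ := key y hy
    rw [e]
    exact H.up i g _ (H.inv i h hh) hup
  · obtain ⟨h, hh, -, e⟩ := key y hy
    rw [e]
    exact H.dich i g _ (H.inv i h hh)
  have hlt : ℓ (s i * c g) < ℓ (s i * (s i * c g)) := by
    rw [← mul_assoc, hsq, one_mul]; omega
  obtain ⟨h0, hh0⟩ := H.surj (s i)
  obtain ⟨g0, hg0⟩ := H.surj (s i * c g)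
  have hprod : c (h0 * g0) = c g := by
    rw [H.up i g0 h0 hh0 (by rw [hg0]; exact hlt), hg0, ← mul_assoc, hsq, one_mul]
  obtain ⟨b, hb, b', hb', hgb⟩ := H.fib _ g hprod
  refine ⟨((a * (b * h0) : G) : G ⧸ B), ⟨?_, ?_⟩, ?_⟩
  · rw [H.relPos_mk, inv_mul_cancel_left, ← mul_one (b * h0), H.biB b hb 1 (one_mem B), hh0]
  · rw [H.relPos_mk, hgb, show (a * (b * h0))⁻¹ * (a * (b * (h0 * g0) * b')) = 1 * g0 * b' by group,
      H.biB 1 (one_mem B) b' hb', ← hgb, hg0]
  rintro y ⟨hy1, hy2⟩
  obtain ⟨h, hh, rfl, e⟩ := key y hy1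
  rw [e] at hy2
  rw [QuotientGroup.eq, show (a * h)⁻¹ * (a * (b * h0)) = h⁻¹ * (b * h0) by group,
    ← H.c_eq_one_iff]
  have hb0 : c (b * h0) = s i := by rw [← mul_one (b * h0), H.biB b hb 1 (one_mem B), hh0]
  rcases H.dich i (b * h0) _ (H.inv i h hh) with h1 | h1
  · rw [h1, hb0, hsq]
  exfalso
  rw [hb0] at h1
  have hk : c ((b * h0)⁻¹ * g) = s i * c g := by
    rw [hgb, show (b * h0)⁻¹ * (b * (h0 * g0) * b') = 1 * g0 * b' by group,
      H.biB 1 (one_mem B) b' hb', ← hgb, hg0]
  have h2 := H.up i ((b * h0)⁻¹ * g) (h⁻¹ * (b * h0)) h1 (by rw [hk]; exact hlt)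
  rw [show h⁻¹ * (b * h0) * ((b * h0)⁻¹ * g) = h⁻¹ * g by group, hk, hy2, ← mul_assoc (s i),
    hsq, one_mul] at h2
  rw [h2] at hne
  exact hne rfl

variable [DecidableEq (G ⧸ B)] [Fintype (G ⧸ B)]

/-- The standard basis element of the centraliser algebra. -/
noncomputable def CellData.basisT : W → ↥(invAlg G (G ⧸ B)) := fun w =>
  ⟨Matrix.of fun x y => if relPos c x y = w then 1 else 0, fun g x y => by
    simp only [Matrix.of_apply, H.relPos_smul]⟩

theorem CellData.basisT_apply (w : W) (x y : G ⧸ B) :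
    ((H.basisT w : ↥(invAlg G (G ⧸ B))) : Matrix _ _ ℂ) x y =
      if relPos c x y = w then 1 else 0 := rfl

include H in
omit [Fintype W] in
theorem CellData.invariant_eq {M : Matrix (G ⧸ B) (G ⧸ B) ℂ} (hM : IsInvariant G M)
    (rep : W → G) (hrep : ∀ w, c (rep w) = w) (x y : G ⧸ B) :
    M x y = M ((1 : G) : G ⧸ B) ((rep (relPos c x y) : G) : G ⧸ B) := by
  induction x using QuotientGroup.induction_on with
  | _ a =>
  induction y using QuotientGroup.induction_on with
  | _ b =>
    rw [H.relPos_mk]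
    obtain ⟨u, hu, v, hv, e⟩ := H.fib (rep (c (a⁻¹ * b))) (a⁻¹ * b) (hrep _)
    have h1 : ((a : G) : G ⧸ B) = (a * u) • ((1 : G) : G ⧸ B) := by
      rw [MulAction.Quotient.smul_coe, smul_eq_mul, mul_one, QuotientGroup.eq,
        inv_mul_cancel_left]
      exact hu
    have h2 : ((b : G) : G ⧸ B) = (a * u) • ((rep (c (a⁻¹ * b)) : G) : G ⧸ B) := by
      rw [MulAction.Quotient.smul_coe, smul_eq_mul, QuotientGroup.eq]
      have : b⁻¹ * (a * u * rep (c (a⁻¹ * b))) = v⁻¹ := by
        rw [show b⁻¹ * (a * u * rep (c (a⁻¹ * b))) = (a⁻¹ * b)⁻¹ * (u * rep (c (a⁻¹ * b))) by group]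
        nth_rw 1 [e]
        group
      rw [this]
      exact inv_mem hv
    conv_lhs => rw [h1, h2]
    exact hM _ _ _

/-- The standard basis. -/
noncomputable def CellData.heckeBasis : Basis W ℂ ↥(invAlg G (G ⧸ B)) :=
  Basis.ofEquivFun
    { toFun := fun M w => (M : Matrix (G ⧸ B) (G ⧸ B) ℂ) ((1 : G) : G ⧸ B)
        ((H.surj.hasRightInverse.choose w : G) : G ⧸ B)
      invFun := fun f => ⟨Matrix.of fun x y => f (relPos c x y), fun g x y => by
        simp only [Matrix.of_apply, H.relPos_smul]⟩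
      left_inv := fun M => Subtype.ext (by
        ext x y
        exact (H.invariant_eq M.2 _ H.surj.hasRightInverse.choose_spec x y).symm)
      right_inv := fun f => funext fun w => by
        simp [H.relPos_mk, H.surj.hasRightInverse.choose_spec w]
      map_add' := fun M N => funext fun w => rfl
      map_smul' := fun r M => funext fun w => rfl }

theorem CellData.heckeBasis_apply (w : W) : H.heckeBasis w = H.basisT w := by
  refine Subtype.ext ?_
  ext x y
  simp [CellData.heckeBasis, CellData.basisT_apply, Pi.single_apply, eq_comm]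

include H in
theorem CellData.basisT_one : H.basisT 1 = 1 := by
  refine Subtype.ext ?_
  ext x y
  rw [CellData.basisT_apply, OneMemClass.coe_one, Matrix.one_apply]
  refine if_congr ?_ rfl rfl
  rw [relPos, H.c_eq_one_iff, ← QuotientGroup.eq, QuotientGroup.out_eq', QuotientGroup.out_eq']

include H in
omit [DecidableEq (G ⧸ B)] in
theorem CellData.card_at (i : ι) (a : G) :
    ((Finset.univ.filter fun y : G ⧸ B => relPos c (a : G ⧸ B) y = s i).card : ℂ) = q := by
  classical
  rw [← H.card i, Nat.card_eq_fintype_card, ← Fintype.card_subtype]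
  congr 1
  refine Fintype.card_congr ((MulAction.toPerm a⁻¹).subtypeEquiv fun y => ?_)
  rw [MulAction.toPerm_apply, ← H.relPos_smul a⁻¹, MulAction.Quotient.smul_coe, smul_eq_mul,
    inv_mul_cancel]
  conv_lhs => rw [← QuotientGroup.out_eq' (a⁻¹ • y), H.relPos_mk, inv_one, one_mul]

include H in
theorem CellData.rule {wd : W → List ι} (hl : IsLen s ℓ wd)
    (hne : ∀ i w, ℓ (s i * w) ≠ ℓ w) :
    HeckeRule H.basisT (q : ℂ) s ℓ := by
  classical
  intro i w
  refine Subtype.ext ?_
  ext x z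
  rw [Subalgebra.coe_mul, Matrix.mul_apply, AddSubmonoidClass.coe_finsetSum, Matrix.sum_apply]
  simp only [CellData.basisT_apply, Subalgebra.coe_smul, Matrix.smul_apply, smul_eq_mul,
    mul_ite, mul_one, mul_zero, ite_mul, one_mul, zero_mul]
  rw [Finset.sum_ite_eq, if_pos (Finset.mem_univ _)]
  induction x using QuotientGroup.induction_on with
  | _ a =>
  induction z using QuotientGroup.induction_on with
  | _ b =>
    obtain ⟨g, rfl⟩ : ∃ g, b = a * g := ⟨a⁻¹ * b, (mul_inv_cancel_left a b).symm⟩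
    have hcg : relPos c (a : G ⧸ B) ((a * g : G) : G ⧸ B) = c g := by
      rw [H.relPos_mk, inv_mul_cancel_left]
    obtain ⟨hinc, hdec⟩ := H.count hl.sq i a g
    rw [hcg, Matrix.map_apply, heckeL, Matrix.of_apply]
    have hfun : ∀ y : G ⧸ B,
        (if relPos c y ((a * g : G) : G ⧸ B) = w then
          (if relPos c (a : G ⧸ B) y = s i then (1 : ℂ) else 0) else 0) =
        if relPos c (a : G ⧸ B) y = s i then
          (if relPos c y ((a * g : G) : G ⧸ B) = w then (1 : ℂ) else 0) else 0 := fun y => by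
      split_ifs <;> rfl
    simp_rw [hfun]
    rw [← Finset.sum_filter]
    by_cases hup : ℓ (c g) < ℓ (s i * c g)
    · rw [if_pos hup, Finset.sum_congr rfl fun y hy => by
        rw [hinc hup y (Finset.mem_filter.1 hy).2], Finset.sum_const, nsmul_eq_mul, H.card_at]
      by_cases e : w = s i * c g
      · simp [e]
      · simp [e, Ne.symm e]
    · obtain ⟨hor, y0, hy0, huniq⟩ := hdec hup (hne i (c g)).symm
      have hmem : y0 ∈ Finset.univ.filter fun y : G ⧸ B => relPos c (a : G ⧸ B) y = s i :=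
        Finset.mem_filter.2 ⟨Finset.mem_univ _, hy0.1⟩
      rw [if_neg hup, ← Finset.add_sum_erase _ _ hmem, hy0.2,
        Finset.sum_congr rfl fun y hy => by
          have h1 := (Finset.mem_filter.1 (Finset.mem_of_mem_erase hy)).2
          rw [(hor y h1).resolve_left fun h => Finset.ne_of_mem_erase hy (huniq y ⟨h1, h⟩)],
        Finset.sum_const, nsmul_eq_mul, Finset.card_erase_of_mem hmem,
        Nat.cast_sub (Finset.card_pos.2 ⟨_, hmem⟩), H.card_at, Nat.cast_one]
      by_cases e : w = s i * c g <;> by_cases e' : w = c g <;>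
        simp [e, e', eq_comm] <;> split_ifs <;> simp

include H in
/-- The trace form of the centraliser algebra is nondegenerate. -/
theorem CellData.nondeg (a : ↥(invAlg G (G ⧸ B)))
    (h : ∀ z, regTr (K := ℂ) (a * z) = 0) : a = 0 := by
  classical
  set b := H.heckeBasis with hb
  have hbw : ∀ w x y, (b w : Matrix (G ⧸ B) (G ⧸ B) ℂ) x y = if relPos c x y = w then 1 else 0 :=
    fun w x y => by rw [hb, H.heckeBasis_apply, H.basisT_apply]
  -- orthogonality of the basis
  set N : W → ℝ := fun w => ∑ x : G ⧸ B, ∑ y : G ⧸ B, if relPos c x y = w then (1 : ℝ) else 0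
  have hN : ∀ w, 0 < N w := by
    intro w
    obtain ⟨g, hg⟩ := H.surj w
    refine Finset.sum_pos' (fun x _ => Finset.sum_nonneg fun y _ => by split_ifs <;> norm_num)
      ⟨((1 : G) : G ⧸ B), Finset.mem_univ _, Finset.sum_pos'
        (fun y _ => by split_ifs <;> norm_num) ⟨(g : G ⧸ B), Finset.mem_univ _, ?_⟩⟩
    rw [H.relPos_mk, inv_one, one_mul, if_pos hg]
    norm_num
  have hcoef : ∀ (m : ↥(invAlg G (G ⧸ B))) (w : W),
      ((b w : Matrix (G ⧸ B) (G ⧸ B) ℂ)ᴴ * (m : Matrix (G ⧸ B) (G ⧸ B) ℂ)).trace =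
        b.repr m w * (N w : ℂ) := by
    intro m w
    conv_lhs => rw [← b.sum_repr m]
    rw [AddSubmonoidClass.coe_finsetSum, Finset.mul_sum, Matrix.trace_sum]
    simp_rw [Subalgebra.coe_smul, Matrix.mul_smul, Matrix.trace_smul, smul_eq_mul]
    rw [Finset.sum_eq_single w]
    · congr 1
      simp only [Matrix.trace, Matrix.diag_apply, Matrix.mul_apply, Matrix.conjTranspose_apply,
        hbw, N]
      push_cast
      rw [Finset.sum_comm]
      exact Finset.sum_congr rfl fun x _ => Finset.sum_congr rfl fun y _ => by split_ifs <;> simp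
    · intro v _ hv
      simp only [Matrix.trace, Matrix.diag_apply, Matrix.mul_apply, Matrix.conjTranspose_apply, hbw]
      refine mul_eq_zero_of_right _ (Finset.sum_eq_zero fun x _ => Finset.sum_eq_zero fun y _ => ?_)
      by_cases e : relPos c y x = w
      · rw [if_pos e, e, if_neg (Ne.symm hv), mul_zero]
      · rw [if_neg e, star_zero, zero_mul]
    · exact fun hh => absurd (Finset.mem_univ _) hh
  -- test against the adjoint
  set A := (a : Matrix (G ⧸ B) (G ⧸ B) ℂ) with hA
  let astar : ↥(invAlg G (G ⧸ B)) := ⟨Aᴴ, fun g x y => by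
    rw [Matrix.conjTranspose_apply, Matrix.conjTranspose_apply]
    exact congrArg star (a.2 g y x)⟩
  set sqSum : Matrix (G ⧸ B) (G ⧸ B) ℂ → ℝ := fun X => ∑ x, ∑ y, Complex.normSq (X x y)
  have hsq : ∀ X : Matrix (G ⧸ B) (G ⧸ B) ℂ, (Xᴴ * X).trace = (sqSum X : ℂ) := by
    intro X
    simp only [Matrix.trace, Matrix.diag_apply, Matrix.mul_apply, Matrix.conjTranspose_apply, sqSum]
    push_cast
    rw [Finset.sum_comm]
    exact Finset.sum_congr rfl fun x _ => Finset.sum_congr rfl fun y _ => by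
      rw [Complex.normSq_eq_conj_mul_self]; rfl
  have hnn : ∀ X, 0 ≤ sqSum X := fun X =>
    Finset.sum_nonneg fun x _ => Finset.sum_nonneg fun y _ => Complex.normSq_nonneg _
  have htr : regTr (K := ℂ) (astar * a) =
      ((∑ w, sqSum (A * (b w : Matrix (G ⧸ B) (G ⧸ B) ℂ)) / N w : ℝ) : ℂ) := by
    rw [regTr_apply, LinearMap.trace_eq_matrix_trace ℂ b, Matrix.trace]
    push_cast
    refine Finset.sum_congr rfl fun w _ => ?_
    rw [Matrix.diag_apply, LinearMap.toMatrix_apply, LinearMap.mulLeft_apply,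
      eq_div_iff (by exact_mod_cast (hN w).ne'), ← hcoef, ← hsq, Matrix.conjTranspose_mul,
      Subalgebra.coe_mul, Subalgebra.coe_mul]
    simp only [astar, ← hA, mul_assoc]
  have hcomm : regTr (K := ℂ) (astar * a) = regTr (K := ℂ) (a * astar) := by
    rw [regTr_apply, regTr_apply, LinearMap.mulLeft_mul, LinearMap.mulLeft_mul]
    exact LinearMap.trace_mul_comm ℂ _ _
  rw [htr, h astar, Complex.ofReal_eq_zero,
    Finset.sum_eq_zero_iff_of_nonneg fun w _ => div_nonneg (hnn _) (hN w).le] at hcomm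
  have h1 := hcomm 1 (Finset.mem_univ _)
  rw [div_eq_zero_iff, or_iff_left (hN 1).ne', hb, H.heckeBasis_apply, H.basisT_one,
    OneMemClass.coe_one, mul_one] at h1
  refine Subtype.ext ?_
  ext x y
  have h2 := (Finset.sum_eq_zero_iff_of_nonneg fun x _ =>
    Finset.sum_nonneg fun y _ => Complex.normSq_nonneg _).1 h1 x (Finset.mem_univ _)
  have h3 := (Finset.sum_eq_zero_iff_of_nonneg fun y _ => Complex.normSq_nonneg _).1 h2 y
    (Finset.mem_univ _)
  exact Complex.normSq_eq_zero.1 h3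

include H in
/-- The Casimir numerator at `q` counts the constituents. -/
theorem CellData.eval_casNum {wd : W → List ι} (hl : IsLen s ℓ wd)
    (hne : ∀ i w, ℓ (s i * w) ≠ ℓ w) :
    (gramM (heckeP s ℓ wd)).det.eval (q : ℂ) ≠ 0 ∧ ∃ k ≤ Fintype.card W,
      k = Nat.card {χ : IrrCharacter G //
        classInner (fixChar G (G ⧸ B)) (χ : G → ℂ) ≠ 0} ∧
      (casNum (heckeP s ℓ wd)).eval (q : ℂ) =
        (k : ℂ) * (gramM (heckeP s ℓ wd)).det.eval (q : ℂ) := by
  have he : (⇑H.heckeBasis : W → ↥(invAlg G (G ⧸ B))) = H.basisT := funext H.heckeBasis_apply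
  have h := Hecke.eval_casNum hl H.heckeBasis (x := (q : ℂ))
    (by rw [he]; exact H.rule hl hne) (by rw [he]; exact H.basisT_one) H.nondeg
  haveI := Module.Finite.of_basis H.heckeBasis
  refine ⟨h.1, finrank ℂ (Subalgebra.center ℂ ↥(invAlg G (G ⧸ B))).toSubmodule, ?_,
    finrank_center_invAlg, h.2⟩
  rw [← Module.finrank_eq_card_basis H.heckeBasis]
  exact Submodule.finrank_le _

end CfsgLib.Hecke
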